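import Mathlib
import Cfsg.Agent.Lib.Frobenius.Basic

/-!
# Cyclic and dicyclic groups are Frobenius complements
-/

set_option autoImplicit false

namespace Cfsg.Agent.Lib.Frobenius

open Cfsg

universe u

/-- Every nontrivial finite cyclic group is a Frobenius complement. -/
theorem cyclic_is_complement {C : Type u} [Group C] [Finite C] [IsCyclic C] [Nontrivial C] :
    ∃ (L : Type) (_ : Group L) (_ : Finite L) (H : Subgroup L),
      IsFrobeniusComplement H ∧ Nonempty (C ≃* H) := by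
  set m := Nat.card C with hm
  have hm0 : m ≠ 0 := Nat.card_pos.ne'
  obtain ⟨p, hp, -, hmod⟩ := Nat.exists_prime_gt_modEq_one 0 hm0
  haveI : Fact p.Prime := ⟨hp⟩
  obtain ⟨ζ, hζ⟩ := exists_unit_orderOf hmod
  let H : Subgroup (ZMod p)ˣ := Subgroup.zpowers ζ
  have hHc : Nat.card H = m := by rw [Nat.card_zpowers, hζ]
  have hnt : Nontrivial H := by
    rw [← Finite.one_lt_card_iff_nontrivial, hHc, hm, Finite.one_lt_card_iff_nontrivial]
    infer_instance
  have hfpf : ∀ h : H, h ≠ 1 → ∀ v : ZMod p, h • v = v → v = 0 := by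
    intro h hne v hv
    have h1 : (((h : (ZMod p)ˣ) : ZMod p)) * v = v := hv
    by_contra hv0
    apply hne
    have h2 : (((h : (ZMod p)ˣ) : ZMod p)) = 1 := by
      have h3 : ((((h : (ZMod p)ˣ) : ZMod p)) - 1) * v = 0 := by
        rw [sub_mul, h1, one_mul, sub_self]
      rcases mul_eq_zero.mp h3 with h4 | h4
      · exact sub_eq_zero.mp h4
      · exact absurd h4 hv0
    exact Subtype.ext (Units.ext h2)
  obtain ⟨L, i1, i2, K, hK, ⟨e⟩⟩ := exists_frobenius_of_fpf (V := ZMod p) (H := H) hfpf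
  exact ⟨L, i1, i2, K, hK, ⟨(mulEquivOfCyclicCardEq hHc.symm).trans e.symm⟩⟩

section Dicyclic

variable {p n : ℕ} [hp : Fact p.Prime] [NeZero n]

/-- The additive character `i ↦ ζ ^ i.val` on `ZMod (2 * n)`. -/
def dicE (ζ : ZMod p) (i : ZMod (2 * n)) : ZMod p := ζ ^ i.val

theorem dicE_add {ζ : ZMod p} (hζ : ζ ^ (2 * n) = 1) (i j : ZMod (2 * n)) :
    dicE ζ (i + j) = dicE ζ i * dicE ζ j := by
  unfold dicE
  rw [ZMod.val_add, ← pow_add]
  conv_rhs => rw [← Nat.mod_add_div (i.val + j.val) (2 * n), pow_add, pow_mul, hζ, one_pow, mul_one]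

theorem dicE_zero (ζ : ZMod p) : dicE (n := n) ζ 0 = 1 := by
  simp [dicE, ZMod.val_zero]

theorem dicE_neg_mul {ζ : ZMod p} (hζ : ζ ^ (2 * n) = 1) (i : ZMod (2 * n)) :
    dicE ζ (-i) * dicE ζ i = 1 := by
  rw [← dicE_add hζ, neg_add_cancel, dicE_zero]

/-- The action of the dicyclic group on `F_p²`. -/
def dicAct (ζ : ZMod p) : QuaternionGroup n → (ZMod p × ZMod p) → (ZMod p × ZMod p)
  | QuaternionGroup.a i, v => (dicE ζ i * v.1, dicE ζ (-i) * v.2)
  | QuaternionGroup.xa i, v => (dicE ζ (-i) * v.2, -(dicE ζ i * v.1))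

theorem dicE_natCast_n {ζ : ZMod p} (hn : ζ ^ n = -1) : dicE ζ ((n : ℕ) : ZMod (2 * n)) = -1 := by
  unfold dicE
  have hn0 : n ≠ 0 := NeZero.ne n
  rw [ZMod.val_natCast_of_lt (by omega), hn]

theorem dicE_neg_n {ζ : ZMod p} (hζ : ζ ^ (2 * n) = 1) (hn : ζ ^ n = -1) :
    dicE ζ (-((n : ℕ) : ZMod (2 * n))) = -1 := by
  have h1 := dicE_neg_mul hζ ((n : ℕ) : ZMod (2 * n))
  rw [dicE_natCast_n hn] at h1
  linear_combination -h1

/-- The action as a `DistribMulAction`. -/
@[instance_reducible] def dicDMA (ζ : ZMod p) (hζ : ζ ^ (2 * n) = 1) (hn : ζ ^ n = -1) :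
    DistribMulAction (QuaternionGroup n) (ZMod p × ZMod p) where
  smul g v := dicAct ζ g v
  one_smul v := by
    show dicAct ζ (QuaternionGroup.a 0) v = v
    ext <;> simp [dicAct, dicE_zero]
  mul_smul g h v := by
    show dicAct ζ (g * h) v = dicAct ζ g (dicAct ζ h v)
    have hadd := dicE_add hζ
    have hneg := dicE_neg_mul hζ
    cases g with
    | a i =>
      cases h with
      | a j =>
        rw [QuaternionGroup.a_mul_a]
        simp only [dicAct, neg_add, hadd]
        ext <;> simp <;> ring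
      | xa j =>
        rw [QuaternionGroup.a_mul_xa]
        have e1 : j - i = j + -i := sub_eq_add_neg j i
        have e2 : -(j + -i) = i + -j := by ring
        simp only [dicAct, e1, e2, hadd]
        ext <;> simp <;> ring
    | xa i =>
      cases h with
      | a j =>
        rw [QuaternionGroup.xa_mul_a]
        simp only [dicAct, neg_add, hadd]
        ext <;> simp <;> ring
      | xa j =>
        rw [QuaternionGroup.xa_mul_xa]
        have e1 : ((n : ℕ) : ZMod (2 * n)) + j - i = ((n : ℕ) : ZMod (2 * n)) + (j + -i) := by ring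
        have e2 : -(((n : ℕ) : ZMod (2 * n)) + (j + -i)) = -((n : ℕ) : ZMod (2 * n)) + (i + -j) := by ring
        simp only [dicAct, e1, e2, hadd, dicE_natCast_n hn, dicE_neg_n hζ hn]
        ext <;> simp <;> ring
  smul_zero g := by
    show dicAct ζ g 0 = 0
    cases g <;> ext <;> simp [dicAct]
  smul_add g v w := by
    show dicAct ζ g (v + w) = dicAct ζ g v + dicAct ζ g w
    cases g <;> ext <;> simp [dicAct] <;> ring

/-- The fixed point free property. -/
theorem dicAct_fpf {ζ : ZMod p} (hp2 : p ≠ 2) (hζ : ζ ^ (2 * n) = 1)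
    (hord : ∀ k : ℕ, ζ ^ k = 1 → 2 * n ∣ k) (g : QuaternionGroup n) (hg : g ≠ 1)
    (v : ZMod p × ZMod p) (hv : dicAct ζ g v = v) : v = 0 := by
  have hne1 : ∀ i : ZMod (2 * n), i ≠ 0 → dicE ζ i ≠ 1 := by
    intro i hi h
    have h1 := hord _ h
    have h2 : i.val < 2 * n := ZMod.val_lt i
    have h3 : i.val = 0 := Nat.eq_zero_of_dvd_of_lt h1 h2
    exact hi ((ZMod.val_eq_zero i).mp h3)
  have hcancel : ∀ (c x : ZMod p), c ≠ 1 → c * x = x → x = 0 := by
    intro c x hc h
    have h1 : (c - 1) * x = 0 := by rw [sub_mul, h, one_mul, sub_self]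
    exact (mul_eq_zero.mp h1).resolve_left (sub_ne_zero.mpr hc)
  obtain ⟨u, w⟩ := v
  cases g with
  | a i =>
    have hi : i ≠ 0 := by
      rintro rfl
      exact hg rfl
    simp only [dicAct, Prod.mk.injEq] at hv
    have h1 := hcancel _ _ (hne1 i hi) hv.1
    have h2 := hcancel _ _ (hne1 (-i) (neg_ne_zero.mpr hi)) hv.2
    simp [h1, h2]
  | xa i =>
    simp only [dicAct, Prod.mk.injEq] at hv
    obtain ⟨h1, h2⟩ := hv
    have h3 := dicE_neg_mul hζ i
    have h4 : w = -w := by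
      calc w = -(dicE ζ i * u) := h2.symm
        _ = -(dicE ζ i * (dicE ζ (-i) * w)) := by rw [h1]
        _ = -((dicE ζ (-i) * dicE ζ i) * w) := by ring
        _ = -w := by rw [h3, one_mul]
    have h5 : (2 : ZMod p) * w = 0 := by linear_combination h4
    have h6 : (2 : ZMod p) ≠ 0 := by
      intro h
      have h7 : ((2 : ℕ) : ZMod p) = 0 := by exact_mod_cast h
      rw [ZMod.natCast_eq_zero_iff] at h7
      exact hp2 ((Nat.prime_dvd_prime_iff_eq hp.out Nat.prime_two).mp h7)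
    have h8 : w = 0 := (mul_eq_zero.mp h5).resolve_left h6
    have h9 : u = 0 := by rw [← h1, h8, mul_zero]
    simp [h8, h9]

/-- Every dicyclic group is a Frobenius complement. -/
theorem dicyclic_is_complement (n : ℕ) (hn2 : 2 ≤ n) :
    ∃ (L : Type) (_ : Group L) (_ : Finite L) (H : Subgroup L),
      IsFrobeniusComplement H ∧ Nonempty (H ≃* QuaternionGroup n) := by
  haveI : NeZero n := ⟨by omega⟩
  obtain ⟨p, hp, hp2, hmod⟩ := Nat.exists_prime_gt_modEq_one (k := 2 * n) 2 (by omega)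
  haveI : Fact p.Prime := ⟨hp⟩
  obtain ⟨ζ', hζ'⟩ := exists_unit_orderOf hmod
  let ζ : ZMod p := ζ'
  have hval : ∀ k : ℕ, ζ ^ k = ((ζ' ^ k : (ZMod p)ˣ) : ZMod p) :=
    fun k => (Units.val_pow_eq_pow_val ζ' k).symm
  have hζ : ζ ^ (2 * n) = 1 := by
    have := pow_orderOf_eq_one ζ'
    rw [hζ'] at this
    rw [hval, this, Units.val_one]
  have hord : ∀ k : ℕ, ζ ^ k = 1 → 2 * n ∣ k := by
    intro k hk
    rw [← hζ']
    apply orderOf_dvd_of_pow_eq_one
    apply Units.ext
    rw [← hval, hk, Units.val_one]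
  have hnn : ζ ^ n = -1 := by
    have h1 : (ζ ^ n) ^ 2 = 1 := by rw [← pow_mul, mul_comm]; exact hζ
    have h2 : ζ ^ n ≠ 1 := by
      intro h
      have := Nat.le_of_dvd (by omega) (hord n h)
      omega
    rw [sq] at h1
    rcases mul_self_eq_one_iff.mp h1 with h3 | h3
    · exact absurd h3 h2
    · exact h3
  letI := dicDMA ζ hζ hnn
  haveI : Nontrivial (ZMod p × ZMod p) := inferInstance
  haveI : Nontrivial (QuaternionGroup n) := by
    refine ⟨⟨QuaternionGroup.a 0, QuaternionGroup.xa 0, by intro h; cases h⟩⟩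
  obtain ⟨L, i1, i2, K, hK, he⟩ := exists_frobenius_of_fpf (V := ZMod p × ZMod p) (H := QuaternionGroup n)
    (fun g hg v hv => dicAct_fpf (by omega) hζ hord g hg v hv)
  exact ⟨L, i1, i2, K, hK, he⟩

end Dicyclic

end Cfsg.Agent.Lib.Frobenius
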