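import Mathlib
import Cfsg.Agent.Lib.Frobenius.Basic

/-!
# `SL(2,3)` is a Frobenius complement: its faithful action on `F_5²`
-/

set_option autoImplicit false

namespace Cfsg.Agent.Lib.Frobenius

open Cfsg

/-- The embedding of `SL(2,3)` in `SL(2,5)`, on matrix entries encoded in base 3. -/
def sl23Table : ℕ → (ZMod 5 × ZMod 5 × ZMod 5 × ZMod 5)
  | 15 => (0, 4, 1, 0)
  | 16 => (2, 4, 3, 4)
  | 17 => (3, 2, 1, 1)
  | 21 => (0, 1, 4, 0)
  | 22 => (2, 3, 4, 4)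
  | 23 => (3, 1, 2, 1)
  | 28 => (1, 0, 0, 1)
  | 31 => (1, 2, 1, 3)
  | 34 => (3, 3, 4, 1)
  | 37 => (1, 1, 2, 3)
  | 41 => (0, 2, 2, 0)
  | 42 => (4, 2, 1, 2)
  | 46 => (3, 4, 3, 1)
  | 48 => (4, 1, 2, 2)
  | 53 => (3, 0, 0, 2)
  | 56 => (4, 0, 0, 4)
  | 59 => (2, 2, 1, 4)
  | 62 => (4, 3, 4, 2)
  | 65 => (2, 1, 2, 4)
  | 67 => (2, 0, 0, 3)
  | 69 => (1, 4, 3, 3)
  | 74 => (4, 4, 3, 2)
  | 75 => (1, 3, 4, 3)
  | 79 => (0, 3, 3, 0)
  | _ => (1, 0, 0, 1)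

/-- The embedding on matrix entries. -/
def sl23Rho (a b c d : ZMod 3) : ZMod 5 × ZMod 5 × ZMod 5 × ZMod 5 :=
  sl23Table (a.val * 27 + b.val * 9 + c.val * 3 + d.val)

set_option maxRecDepth 100000 in
theorem sl23Rho_mul : ∀ a b c d a' b' c' d' : ZMod 3, a * d - b * c = 1 → a' * d' - b' * c' = 1 →
    sl23Rho (a * a' + b * c') (a * b' + b * d') (c * a' + d * c') (c * b' + d * d') =
      ((sl23Rho a b c d).1 * (sl23Rho a' b' c' d').1 + (sl23Rho a b c d).2.1 * (sl23Rho a' b' c' d').2.2.1,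
       (sl23Rho a b c d).1 * (sl23Rho a' b' c' d').2.1 + (sl23Rho a b c d).2.1 * (sl23Rho a' b' c' d').2.2.2,
       (sl23Rho a b c d).2.2.1 * (sl23Rho a' b' c' d').1 + (sl23Rho a b c d).2.2.2 * (sl23Rho a' b' c' d').2.2.1,
       (sl23Rho a b c d).2.2.1 * (sl23Rho a' b' c' d').2.1 + (sl23Rho a b c d).2.2.2 * (sl23Rho a' b' c' d').2.2.2) := by
  decide

set_option maxRecDepth 100000 in
theorem sl23Rho_fpf : ∀ a b c d : ZMod 3, a * d - b * c = 1 → ¬ (a = 1 ∧ b = 0 ∧ c = 0 ∧ d = 1) →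
    ∀ u v : ZMod 5, (sl23Rho a b c d).1 * u + (sl23Rho a b c d).2.1 * v = u →
      (sl23Rho a b c d).2.2.1 * u + (sl23Rho a b c d).2.2.2 * v = v → u = 0 ∧ v = 0 := by
  decide

abbrev SL23 := Matrix.SpecialLinearGroup (Fin 2) (ZMod 3)

theorem sl23_det (g : SL23) : g.1 0 0 * g.1 1 1 - g.1 0 1 * g.1 1 0 = 1 := by
  have := g.2
  rwa [Matrix.det_fin_two] at this

/-- The linear action on `F_5²`. -/
def sl23Act (g : SL23) (v : ZMod 5 × ZMod 5) : ZMod 5 × ZMod 5 :=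
  let r := sl23Rho (g.1 0 0) (g.1 0 1) (g.1 1 0) (g.1 1 1)
  (r.1 * v.1 + r.2.1 * v.2, r.2.2.1 * v.1 + r.2.2.2 * v.2)

@[instance_reducible] def sl23DMA : DistribMulAction SL23 (ZMod 5 × ZMod 5) where
  smul := sl23Act
  one_smul v := by
    show sl23Act 1 v = v
    have h : sl23Rho 1 0 0 1 = (1, 0, 0, 1) := by
      decide
    ext <;> simp [sl23Act, h]
  mul_smul g h v := by
    show sl23Act (g * h) v = sl23Act g (sl23Act h v)
    have h1 := sl23Rho_mul _ _ _ _ _ _ _ _ (sl23_det g) (sl23_det h)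
    have e1 : (g * h).1 0 0 = g.1 0 0 * h.1 0 0 + g.1 0 1 * h.1 1 0 := by
      simp [Matrix.mul_apply, Fin.sum_univ_two]
    have e2 : (g * h).1 0 1 = g.1 0 0 * h.1 0 1 + g.1 0 1 * h.1 1 1 := by
      simp [Matrix.mul_apply, Fin.sum_univ_two]
    have e3 : (g * h).1 1 0 = g.1 1 0 * h.1 0 0 + g.1 1 1 * h.1 1 0 := by
      simp [Matrix.mul_apply, Fin.sum_univ_two]
    have e4 : (g * h).1 1 1 = g.1 1 0 * h.1 0 1 + g.1 1 1 * h.1 1 1 := by
      simp [Matrix.mul_apply, Fin.sum_univ_two]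
    unfold sl23Act
    simp only [e1, e2, e3, e4, h1]
    ext <;> simp <;> ring
  smul_zero g := by
    show sl23Act g 0 = 0
    ext <;> simp [sl23Act]
  smul_add g v w := by
    show sl23Act g (v + w) = sl23Act g v + sl23Act g w
    ext <;> simp [sl23Act] <;> ring

/-- `SL(2,3)` is a Frobenius complement. -/
theorem sl23_is_complement :
    ∃ (L : Type) (_ : Group L) (_ : Finite L) (H : Subgroup L),
      IsFrobeniusComplement H ∧ Nonempty (H ≃* Matrix.SpecialLinearGroup (Fin 2) (ZMod 3)) := by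
  letI := sl23DMA
  haveI : Nontrivial SL23 := ⟨⟨1, ⟨!![0, 1; 2, 0], by decide⟩, fun h => by
    have h3 : ((1 : SL23).1 0 0) = 0 := congrArg (fun g : SL23 => g.1 0 0) h
    simp at h3⟩⟩
  haveI : Nontrivial (ZMod 5 × ZMod 5) := ⟨⟨(0, 0), (1, 0), by decide⟩⟩
  refine exists_frobenius_of_fpf (V := ZMod 5 × ZMod 5) (H := SL23) ?_
  intro g hg v hv
  have h1 : sl23Act g v = v := hv
  have hne : ¬ (g.1 0 0 = 1 ∧ g.1 0 1 = 0 ∧ g.1 1 0 = 0 ∧ g.1 1 1 = 1) := by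
    rintro ⟨h2, h3, h4, h5⟩
    apply hg
    apply Subtype.ext
    ext i j
    fin_cases i <;> fin_cases j <;> simp [h2, h3, h4, h5]
  have h2 := congrArg Prod.fst h1
  have h3 := congrArg Prod.snd h1
  obtain ⟨h4, h5⟩ := sl23Rho_fpf _ _ _ _ (sl23_det g) hne v.1 v.2 h2 h3
  exact Prod.ext h4 h5

end Cfsg.Agent.Lib.Frobenius
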