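import Mathlib
import Cfsg.Agent.Lib.FrobThm.Basic
import Cfsg.Agent.Lib.Hall.Frobenius
import Cfsg.Agent.Lib.Hall.Frobenius2
import Cfsg.Agent.Lib.Hall.Frobenius3

/-!
# Frobenius kernels with a quaternion complement have odd square order
-/

set_option autoImplicit false

namespace Cfsg.Agent.Lib.Frobenius

open Cfsg Module

universe u

/-- Anticommuting square roots of `-1` force even dimension in odd characteristic. -/
theorem even_finrank_of_quaternion {r : ℕ} [Fact r.Prime] (hr : r ≠ 2) {V : Type*} [AddCommGroup V]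
    [Module (ZMod r) V] [hfd : FiniteDimensional (ZMod r) V] (I J : V →ₗ[ZMod r] V)
    (hI : I * I = -1) (hJ : J * J = -1) (hIJ : I * J = -(J * I)) :
    Even (finrank (ZMod r) V) := by
  set d := finrank (ZMod r) V with hd
  have hneg : ∀ f : V →ₗ[ZMod r] V, LinearMap.det (-f) = (-1) ^ d * LinearMap.det f := by
    intro f
    have : -f = (-1 : ZMod r) • f := by simp
    rw [this, LinearMap.det_smul]
  have h1 : LinearMap.det I * LinearMap.det I = (-1) ^ d := by
    rw [← map_mul, hI, hneg, map_one, mul_one]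
  have h2 : LinearMap.det J * LinearMap.det J = (-1) ^ d := by
    rw [← map_mul, hJ, hneg, map_one, mul_one]
  have hne : ((-1 : ZMod r) ^ d) ≠ 0 := pow_ne_zero _ (neg_ne_zero.mpr one_ne_zero)
  have hdI : LinearMap.det I ≠ 0 := by
    intro h
    rw [h, mul_zero] at h1
    exact hne h1.symm
  have hdJ : LinearMap.det J ≠ 0 := by
    intro h
    rw [h, mul_zero] at h2
    exact hne h2.symm
  have h3 : LinearMap.det I * LinearMap.det J = (-1) ^ d * (LinearMap.det J * LinearMap.det I) := by
    rw [← map_mul, hIJ, hneg, map_mul]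
  have h4 : ((-1 : ZMod r) ^ d) = 1 := by
    have h5 : (LinearMap.det I * LinearMap.det J) * ((-1) ^ d - 1) = 0 := by
      have : LinearMap.det J * LinearMap.det I = LinearMap.det I * LinearMap.det J := mul_comm _ _
      rw [this] at h3
      linear_combination (-1 : ZMod r) * h3
    rcases mul_eq_zero.mp h5 with h6 | h6
    · exact absurd h6 (mul_ne_zero hdI hdJ)
    · exact sub_eq_zero.mp h6
  by_contra hodd
  rw [Nat.not_even_iff_odd] at hodd
  rw [hodd.neg_one_pow] at h4
  have h7 : ((2 : ℕ) : ZMod r) = 0 := by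
    push_cast
    linear_combination -h4
  rw [ZMod.natCast_eq_zero_iff] at h7
  exact hr ((Nat.prime_dvd_prime_iff_eq Fact.out Nat.prime_two).mp h7)

theorem natCard_eq_prime_pow_finrank (r : ℕ) [Fact r.Prime] (T : Type*) [AddCommGroup T]
    [Module (ZMod r) T] [Finite T] : Nat.card T = r ^ finrank (ZMod r) T := by
  haveI h9 : Module.Finite (ZMod r) T := Module.Finite.of_finite
  have h10 := Module.natCard_eq_pow_finrank (K := ZMod r) (V := T)
  rwa [Nat.card_zmod] at h10

/-- A finite abelian group of odd order with anticommuting square roots of `-1` has square order. -/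
theorem isSquare_card_of_quaternion {A : Type u} [AddCommGroup A] [Finite A] (hodd : Odd (Nat.card A))
    (I J : A →+ A) (hI : ∀ x, I (I x) = -x) (hJ : ∀ x, J (J x) = -x)
    (hIJ : ∀ x, I (J x) = -J (I x)) : IsSquare (Nat.card A) := by
  induction hn : Nat.card A using Nat.strong_induction_on generalizing A with
  | _ n ih =>
    by_cases h1 : n = 1
    · subst h1
      exact ⟨1, rfl⟩
    obtain ⟨r, hr, hrn⟩ := Nat.exists_prime_and_dvd h1
    haveI : Fact r.Prime := ⟨hr⟩
    have hr2 : r ≠ 2 := by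
      rintro rfl
      rw [hn] at hodd
      exact (Nat.not_even_iff_odd.mpr hodd) (even_iff_two_dvd.mpr hrn)
    let μ : A →+ A := nsmulAddMonoidHom r
    have hμ : ∀ x, μ x = r • x := fun x => rfl
    let T : AddSubgroup A := μ.ker
    let B : AddSubgroup A := μ.range
    have hcard : Nat.card T * Nat.card B = n := by
      have h2 := T.card_mul_index
      rw [AddSubgroup.index_ker] at h2
      rw [h2, hn]
    have hTmem : ∀ x, x ∈ T ↔ r • x = 0 := fun x => AddMonoidHom.mem_ker
    have hBmem : ∀ x, x ∈ B ↔ ∃ y, r • y = x := fun x => by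
      rw [AddMonoidHom.mem_range]
      rfl
    -- restriction to `B`
    have hBI : ∀ (f : A →+ A) (x : A), x ∈ B → f x ∈ B := by
      intro f x hx
      obtain ⟨y, rfl⟩ := (hBmem x).mp hx
      exact (hBmem _).mpr ⟨f y, by rw [map_nsmul]⟩
    have hTI : ∀ (f : A →+ A) (x : A), x ∈ T → f x ∈ T := by
      intro f x hx
      rw [hTmem] at hx ⊢
      rw [← map_nsmul, hx, map_zero]
    let IB : B →+ B := (I.comp B.subtype).codRestrict B (fun x => hBI I x x.2)
    let JB : B →+ B := (J.comp B.subtype).codRestrict B (fun x => hBI J x x.2)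
    let IT : T →+ T := (I.comp T.subtype).codRestrict T (fun x => hTI I x x.2)
    let JT : T →+ T := (J.comp T.subtype).codRestrict T (fun x => hTI J x x.2)
    -- `T` is nontrivial
    have hTgt : 1 < Nat.card T := by
      obtain ⟨x, hx⟩ := exists_prime_addOrderOf_dvd_card' (G := A) r (by rw [hn]; exact hrn)
      have hxT : x ∈ T := (hTmem x).mpr (by rw [← hx]; exact addOrderOf_nsmul_eq_zero x)
      have hx0 : x ≠ 0 := by
        rintro rfl
        rw [addOrderOf_zero] at hx
        exact hr.one_lt.ne hx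
      have : Nontrivial T := ⟨⟨⟨x, hxT⟩, 0, fun h => hx0 (congrArg Subtype.val h)⟩⟩
      exact Finite.one_lt_card
    have hnpos : 0 < n := by rw [← hn]; exact Nat.card_pos
    have hBpos : 0 < Nat.card B := Nat.card_pos
    have hBlt : Nat.card B < n := by
      rw [← hcard]
      nlinarith
    have hBodd : Odd (Nat.card B) := by
      have h2 : Odd n := hn ▸ hodd
      rw [← hcard] at h2
      exact (Nat.odd_mul.mp h2).2
    have hBsq : IsSquare (Nat.card B) :=
      ih _ hBlt hBodd IB JB
        (fun x => Subtype.ext (hI x)) (fun x => Subtype.ext (hJ x)) (fun x => Subtype.ext (hIJ x)) rfl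
    -- `T` is a vector space
    have hTr : ∀ x : T, r • x = 0 := fun x => Subtype.ext ((hTmem x).mp x.2)
    letI : Module (ZMod r) T := AddCommGroup.zmodModule hTr
    haveI : Finite T := inferInstance
    let IL : T →ₗ[ZMod r] T := IT.toZModLinearMap r
    let JL : T →ₗ[ZMod r] T := JT.toZModLinearMap r
    have hev : Even (finrank (ZMod r) T) := by
      refine even_finrank_of_quaternion (hfd := Module.Finite.of_finite) hr2 IL JL ?_ ?_ ?_
      · ext x
        exact hI x
      · ext x
        exact hJ x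
      · ext x
        exact hIJ x
    have hTcard : Nat.card T = r ^ finrank (ZMod r) T := by
      exact natCard_eq_prime_pow_finrank r T
    obtain ⟨k, hk⟩ := hev
    have hTsq : IsSquare (Nat.card T) := ⟨r ^ k, by rw [hTcard, hk, pow_add]⟩
    rw [← hcard]
    exact hTsq.mul hBsq

/-- A normal abelian subgroup of odd order with two elements acting as quaternion units has square
order. -/
theorem isSquare_card_of_conj {L : Type*} [Group L] (N : Subgroup L) [hN : N.Normal] [Finite N]
    (hab : IsMulCommutative N) (hodd : Odd (Nat.card N)) (a b : L)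
    (hI : ∀ k ∈ N, a * (a * k * a⁻¹) * a⁻¹ = k⁻¹) (hJ : ∀ k ∈ N, b * (b * k * b⁻¹) * b⁻¹ = k⁻¹)
    (hIJ : ∀ k ∈ N, a * (b * k * b⁻¹) * a⁻¹ = (b * (a * k * a⁻¹) * b⁻¹)⁻¹) :
    IsSquare (Nat.card N) := by
  letI : CommGroup N := { (inferInstance : Group N) with mul_comm := hab.is_comm.comm }
  let f : L → (Additive N →+ Additive N) := fun g =>
    { toFun := fun x => Additive.ofMul
        (⟨g * (x.toMul : N) * g⁻¹, hN.conj_mem _ (x.toMul : N).2 g⟩ : N)
      map_zero' := by
        apply Additive.toMul.injective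
        apply Subtype.ext
        simp
      map_add' := fun x y => by
        apply Additive.toMul.injective
        apply Subtype.ext
        simp [mul_assoc] }
  have hf : ∀ (g : L) (x : Additive N), (((f g x).toMul : N) : L) = g * (x.toMul : N) * g⁻¹ :=
    fun g x => rfl
  have hcard : Nat.card (Additive N) = Nat.card N := rfl
  rw [← hcard]
  apply isSquare_card_of_quaternion (by rw [hcard]; exact hodd) (f a) (f b)
  · intro x
    apply Additive.toMul.injective
    apply Subtype.ext
    show a * (a * (x.toMul : N) * a⁻¹) * a⁻¹ = _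
    rw [hI _ (x.toMul : N).2]
    rfl
  · intro x
    apply Additive.toMul.injective
    apply Subtype.ext
    show b * (b * (x.toMul : N) * b⁻¹) * b⁻¹ = _
    rw [hJ _ (x.toMul : N).2]
    rfl
  · intro x
    apply Additive.toMul.injective
    apply Subtype.ext
    show a * (b * (x.toMul : N) * b⁻¹) * a⁻¹ = _
    rw [hIJ _ (x.toMul : N).2]
    rfl

/-- A Frobenius complement containing a quaternion pair has a kernel of odd square order. -/
theorem odd_isSquare_kernel_of_pair {L : Type*} [Group L] [Finite L] {H : Subgroup L}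
    (hF : IsFrobeniusComplement H) {a b : L} (ha : a ∈ H) (hb : b ∈ H) (ha4 : a ^ 4 = 1)
    (ha2 : a ^ 2 ≠ 1) (hb2 : b ^ 2 = a ^ 2) (hba : b * a * b⁻¹ = a⁻¹) :
    Odd (Nat.card (frobeniusKernel H)) ∧ IsSquare (Nat.card (frobeniusKernel H)) := by
  classical
  obtain ⟨N, hN, hNn, hc⟩ := Cfsg.Agent.Lib.FrobThm.frobenius_theorem H hF
  haveI := hNn
  have hcardN : Nat.card (frobeniusKernel H) = Nat.card N := Nat.card_congr (Equiv.setCongr hN.symm)
  rw [hcardN]
  have hNbot : N ≠ ⊥ := by
    rintro rfl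
    apply hF.2.1
    have h1 := hc.sup_eq_top
    rwa [bot_sup_eq] at h1
  have hfpf := (Cfsg.Agent.Lib.Hall.frobenius_iff_fpf N H hc hNbot hF.1).mp hF
  have hz : a ^ 2 ∈ H := pow_mem ha 2
  have hzo : orderOf (a ^ 2) = 2 := by
    apply orderOf_eq_prime
    · rw [← pow_mul]; exact ha4
    · exact ha2
  have heven : 2 ∣ Nat.card H := by
    have h1 := Subgroup.orderOf_dvd_natCard H hz
    rwa [hzo] at h1
  obtain ⟨⟨s, hs, hso, hsu, hsinv⟩, hab⟩ := Cfsg.Agent.Lib.Hall.even_complement hc hNbot hfpf heven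
  have hzs : a ^ 2 = s := hsu _ hz hzo
  have hcop := Cfsg.Agent.Lib.Hall.coprime_card_kernel hF hN
  have hodd : Odd (Nat.card N) := by
    rw [← Nat.not_even_iff_odd, even_iff_two_dvd]
    intro h2
    have := Nat.dvd_gcd h2 heven
    rw [hcop] at this
    omega
  refine ⟨hodd, ?_⟩
  have hs2 : s * s = 1 := by
    have := pow_orderOf_eq_one s
    rwa [hso, pow_two] at this
  have hsinv' : s⁻¹ = s := inv_eq_of_mul_eq_one_left hs2
  have hI : ∀ k ∈ N, a * (a * k * a⁻¹) * a⁻¹ = k⁻¹ := by
    intro k hk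
    rw [← hsinv k hk, ← hzs, pow_two]
    group
  have hJ : ∀ k ∈ N, b * (b * k * b⁻¹) * b⁻¹ = k⁻¹ := by
    intro k hk
    rw [← hsinv k hk, ← hzs, ← hb2, pow_two]
    group
  have hIJ : ∀ k ∈ N, a * (b * k * b⁻¹) * a⁻¹ = (b * (a * k * a⁻¹) * b⁻¹)⁻¹ := by
    intro k hk
    have hk2 : b * k * b⁻¹ ∈ N := hNn.conj_mem k hk b
    have h1 : b * (a * k * a⁻¹) * b⁻¹ = a⁻¹ * (b * k * b⁻¹) * a := by
      have h3 : b * a = a⁻¹ * b := by
        rw [← hba]; group
      have h4 : a⁻¹ * b⁻¹ = b⁻¹ * a := by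
        have h5 : b * a⁻¹ * b⁻¹ = a := by
          have h7 : b * a⁻¹ * b⁻¹ = (b * a * b⁻¹)⁻¹ := by group
          rw [h7, hba, inv_inv]
        calc a⁻¹ * b⁻¹ = b⁻¹ * (b * a⁻¹ * b⁻¹) := by group
          _ = b⁻¹ * a := by rw [h5]
      calc b * (a * k * a⁻¹) * b⁻¹ = (b * a) * k * (a⁻¹ * b⁻¹) := by group
        _ = (a⁻¹ * b) * k * (b⁻¹ * a) := by rw [h3, h4]
        _ = _ := by group
    rw [h1]
    have h2 : a⁻¹ = a * s := by
      rw [← hzs]
      have : a ^ 2 * a ^ 2 = 1 := by rw [← pow_add]; exact ha4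
      calc a⁻¹ = a⁻¹ * (a ^ 2 * a ^ 2) := by rw [this, mul_one]
        _ = a * a ^ 2 := by group
    have h6 := hsinv _ hk2
    calc a * (b * k * b⁻¹) * a⁻¹ = a * (s * (b * k * b⁻¹)⁻¹ * s⁻¹) * a⁻¹ := by
          rw [hsinv _ (N.inv_mem hk2), inv_inv]
      _ = (a * s) * (b * k * b⁻¹)⁻¹ * (a * s)⁻¹ := by group
      _ = a⁻¹ * (b * k * b⁻¹)⁻¹ * a := by rw [← h2]; group
      _ = _ := by group
  exact isSquare_card_of_conj N hab hodd a b hI hJ hIJ

end Cfsg.Agent.Lib.Frobenius
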